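import Cfsg.Agent.H54.CDOrth
import Cfsg.Agent.H67.LieInst

/-! Every group of Lie type in characteristic `p` carries a structure `LieS p`. -/

set_option autoImplicit false

namespace H54

open Cfsg

variable {p : ℕ} [Fact p.Prime] {G : Type*} [Group G]

theorem nonempty_lieS_of_classical (h : IsPSLChar p G ∨ IsPSpChar p G ∨ IsPSUChar p G ∨
    IsPOmegaOddChar p G ∨ IsPOmegaPlusChar p G ∨ IsPOmegaMinusChar p G) : Nonempty (LieS p G) := by
  rcases h with ⟨F, _, _, _, n, -, -, ⟨e⟩⟩ | ⟨F, _, _, _, n, -, -, ⟨e⟩⟩ |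
    ⟨F, _, _, _, n, q, hF, -, -, ⟨e⟩⟩ | ⟨F, _, _, _, n, -, h, ⟨e⟩⟩ | ⟨F, _, _, _, n, h, ⟨e⟩⟩ |
    ⟨F, _, _, _, n, a, b, -, h, ⟨e⟩⟩
  · exact ⟨(liePSL F n p).congr e.symm⟩
  · exact ⟨(liePSp F n p).congr e.symm⟩
  · exact ⟨(liePSU hF n p).congr e.symm⟩
  · exact ⟨(liePOmegaOdd F n (H58.two_ne_zero_of_odd_card h) p).congr e.symm⟩
  · exact ⟨(liePOmegaPlus F n (H56.not_isExc_of_finrank (by simp; omega)) p).congr e.symm⟩
  · exact ⟨(liePOmegaMinus _ h p).congr e.symm⟩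

variable [Finite G]

theorem nonempty_lieS (h : IsLieTypeChar p G) : Nonempty (LieS p G) := by
  by_cases hcl : IsPSLChar p G ∨ IsPSpChar p G ∨ IsPSUChar p G ∨
    IsPOmegaOddChar p G ∨ IsPOmegaPlusChar p G ∨ IsPOmegaMinusChar p G
  · exact nonempty_lieS_of_classical hcl
  · obtain ⟨L, -⟩ := (H67.hasGood_of_lieType h fun h => absurd h hcl).exists_lieS
    exact ⟨L⟩

end H54
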