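import Cfsg.Agent.H54.GRDMap

/-! The Steinberg character and the unipotent elements of a group with a structure `LieS`. -/

set_option autoImplicit false

namespace H54

open Cfsg

variable {p : ℕ} [Fact p.Prime] {G : Type*} [Group G] [Finite G]

/-- The Steinberg character restricts to the regular character of a Sylow subgroup. -/
theorem LieS.exists_steinberg (L : LieS p G) : ∃ χ : G → ℂ, IsIrrCharacter G χ ∧
    ∀ P : Sylow p G, χ 1 = Nat.card P ∧ ∀ x : G, x ∈ P → x ≠ 1 → χ x = 0 := by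
  refine ⟨stGRD L.T, isIrrCharacter_stGRD L.T L.top, fun P => ⟨?_, fun x hx h1 => ?_⟩⟩
  · rw [stGRD_one L.T L.top, ← pow_factorization_eq_card_U L.T L.top L.pU L.pH,
      ← P.card_eq_multiplicity]
  · refine stGRD_eq_zero L.T L.top L.pU L.pH ?_
    obtain ⟨k, hk⟩ := IsPGroup.iff_orderOf.1 P.isPGroup' ⟨x, hx⟩
    rw [Subgroup.orderOf_mk] at hk
    rw [hk]
    exact dvd_pow_self p fun h => h1 (by rwa [h, pow_zero, orderOf_eq_one_iff] at hk)

theorem LieS.card_unipotent (L : LieS p G) : Nat.card {g : G // ∃ k, orderOf g = p ^ k} =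
    p ^ (2 * (Nat.card G).factorization p) := by
  rw [H54.card_unipotent L.T L.top L.pU L.pH, ← pow_factorization_eq_card_U L.T L.top L.pU L.pH,
    ← pow_mul, mul_comm]

theorem LieS.card_unipotent_of (L : LieS p G) {q k c : ℕ} (hq : ∃ e, q = p ^ e)
    (h : Nat.card G = q ^ k * c) (hc : ¬ p ∣ c) :
    Nat.card {g : G // ∃ k, orderOf g = p ^ k} = q ^ (2 * k) := by
  obtain ⟨e, rfl⟩ := hq
  have hp : p.Prime := Fact.out
  have h0 : c ≠ 0 := by rintro rfl; exact hc (dvd_zero p)
  rw [L.card_unipotent, h, ← pow_mul, ← pow_mul, Nat.factorization_mul (pow_ne_zero _ hp.ne_zero) h0]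
  simp [hp.factorization_self, Nat.factorization_eq_zero_of_not_dvd hc, mul_left_comm]

end H54
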