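import Cfsg.Agent.S0299
import Cfsg.Agent.S0250
import Cfsg.Agent.S0287
import Cfsg.Agent.H54.LieSt
import Cfsg.Agent.H28.Degree

/-! The orthogonal group of plus type in dimension four over the field of two elements. -/

set_option autoImplicit false

namespace H54

open Cfsg Equiv H28
open scoped commutatorElement

theorem exists_oPlus42 {F : Type*} [Field F] [Fintype F] (hF : Fintype.card F = 2) :
    Nat.card (isometryGroup F (quadFormPlus 2 F)) = 72 ∧
    ∃ (φ : Perm (Fin 3) × Perm (Fin 3) →* isometryGroup F (quadFormPlus 2 F))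
      (g : isometryGroup F (quadFormPlus 2 F)),
      Function.Injective φ ∧ ∀ s t, g * φ (s, t) * g⁻¹ = φ (t, s) := by
  refine ⟨by simpa using Agent.S0287.result hF 2 (by norm_num), ?_⟩
  obtain ⟨e⟩ := Agent.S0250.result hF
  obtain ⟨a, ha⟩ := Agent.S0299.α_surj (1 : Matrix (Fin 2) (Fin 2) F)
  have hq : H58.qPlus 2 F a ≠ 0 := by
    have := Agent.S0299.α_det a
    rw [ha, Matrix.det_one] at this
    exact fun h => by simp [h] at this
  let ψ := H56.toO _ (H58.coe_qPlus 2 F)
  refine ⟨ψ.symm.toMonoidHom.comp ((Agent.S0299.D F).hom.comp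
    (e.symm.toMonoidHom.prodMap e.symm.toMonoidHom)), ψ.symm (H56.refl _ a), ?_, fun s t => ?_⟩
  · refine (injective_iff_map_eq_one _).2 fun x hx => ?_
    have h1 := Agent.S0299.mem_center_prod.1 (Agent.S0299.ker_le
      ((map_eq_one_iff _ ψ.symm.injective).1 hx))
    have key : ∀ y : Perm (Fin 3), e.symm y ∈ Subgroup.center _ → y = 1 := fun y hy => by
      have : ∀ z, z * y = y * z := fun z => e.symm.injective (by
        rw [map_mul, map_mul]; exact Subgroup.mem_center_iff.1 hy _)
      clear hy; revert y; decide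
    exact Prod.ext (key _ h1.1) (key _ h1.2)
  · have := (Agent.S0299.D F).refl_mul_hom_mul_refl hq (s := (e.symm s, e.symm t))
      (s' := (e.symm t, e.symm s)) (by
        change _ * Agent.S0299.α F a = Agent.S0299.α F a * _
        rw [ha, mul_one, one_mul]; rfl) (by
        change Agent.S0299.α F a * _ = _ * Agent.S0299.α F a
        rw [ha, mul_one, one_mul]; rfl)
    apply ψ.injective
    simpa using this

/-- The derived group of the wreath product of `S₃` by `2`. -/
theorem commutator_wreath {W : Type*} [Group W] [Finite W] (hW : Nat.card W = 72)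
    (φ : Perm (Fin 3) × Perm (Fin 3) →* W) (g : W) (hφ : Function.Injective φ)
    (hg : ∀ s t, g * φ (s, t) * g⁻¹ = φ (t, s)) :
    Nat.card (commutator W) ∣ 18 ∧ ∃ x ∈ commutator W, ∃ c ∈ commutator W, ⁅⁅x, c⁆, x⁆ ≠ 1 := by
  constructor
  · let K₀ : Subgroup (Perm (Fin 3) × Perm (Fin 3)) :=
      (Perm.sign.comp (MonoidHom.fst _ _)).eqLocus (Perm.sign.comp (MonoidHom.snd _ _))
    have hK : Nat.card (K₀.map φ) = 18 := by
      rw [Subgroup.card_map_of_injective hφ]
      change Nat.card {x : Perm (Fin 3) × Perm (Fin 3) // Perm.sign x.1 = Perm.sign x.2} = 18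
      rw [Nat.card_eq_fintype_card]
      decide +kernel
    have hR : φ.range.index = 2 := by
      have := φ.range.index_mul_card
      rw [← Nat.card_congr (MonoidHom.ofInjective hφ).toEquiv, hW] at this
      rw [show Nat.card (Perm (Fin 3) × Perm (Fin 3)) = 36 by simp [Fintype.card_perm]; rfl] at this
      omega
    have hg' : g ∉ φ.range := by
      rintro ⟨⟨a, b⟩, rfl⟩
      have := hg (swap 0 1) 1
      rw [← map_inv, ← map_mul, ← map_mul] at this
      have := congrArg Prod.snd (hφ this)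
      simp only [Prod.mk_mul_mk, Prod.inv_mk, mul_one, mul_inv_cancel] at this
      exact absurd this (by decide)
    have hN : (K₀.map φ).Normal := by
      have h1 : ∀ y ∈ φ.range, ∀ n ∈ K₀.map φ, y * n * y⁻¹ ∈ K₀.map φ := by
        rintro _ ⟨⟨a, b⟩, rfl⟩ _ ⟨⟨s, t⟩, h, rfl⟩
        refine ⟨(a, b) * (s, t) * (a, b)⁻¹, ?_, by simp only [map_mul, map_inv]⟩
        have h' : Perm.sign s = Perm.sign t := h
        change Perm.sign (a * s * a⁻¹) = Perm.sign (b * t * b⁻¹)
        simp only [map_mul, map_inv, mul_inv_cancel_comm, h']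
      refine ⟨fun n hn y => ?_⟩
      by_cases hy : y ∈ φ.range
      · exact h1 y hy n hn
      · have h2 : y * g⁻¹ ∈ φ.range := (Subgroup.mul_mem_iff_of_index_two hR).2 (by simp [hy, hg'])
        obtain ⟨⟨s, t⟩, h, rfl⟩ := hn
        have := h1 _ h2 (φ (t, s)) ⟨(t, s), Eq.symm h, rfl⟩
        rw [← hg] at this
        convert this using 1
        group
    have h4 : Nat.card (W ⧸ K₀.map φ) = 2 ^ 2 := by
      have := (K₀.map φ).card_eq_card_quotient_mul_card_subgroup
      rw [hK, hW] at this
      omega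
    rw [← hK]
    refine Subgroup.card_dvd_of_le ?_
    have := IsPGroup.isMulCommutative_of_card_eq_prime_sq h4
    exact Subgroup.Normal.quotient_commutative_iff_commutator_le.1 this
  · refine ⟨⁅φ (swap 0 1, 1), g⁆, Subgroup.commutator_mem_commutator trivial trivial,
      ⁅φ (swap 0 1, 1), φ (swap 1 2, 1)⁆, Subgroup.commutator_mem_commutator trivial trivial, ?_⟩
    have : ⁅φ (swap 0 1, 1), g⁆ = φ (swap 0 1, swap 0 1) := by
      rw [commutatorElement_def, ← map_inv, mul_assoc, mul_assoc, ← mul_assoc g, Prod.inv_mk, hg,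
        ← map_mul]
      simp
    rw [this, ← map_commutatorElement, ← map_commutatorElement, ← map_commutatorElement, Ne,
      map_eq_one_iff _ hφ]
    decide +kernel

theorem exists_steinberg_of_dvd_eighteen {G : Type*} [Group G] [Finite G] (h : Nat.card G ∣ 18)
    (hc : commutator G ≠ ⊥) : ∃ χ : G → ℂ, IsIrrCharacter G χ ∧
    ∀ P : Sylow 2 G, χ 1 = Nat.card P ∧ ∀ x : G, x ∈ P → x ≠ 1 → χ x = 0 := by
  have : Fact (Nat.Prime 3) := ⟨Nat.prime_three⟩
  obtain ⟨A⟩ : Nonempty (Sylow 3 G) := inferInstance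
  obtain ⟨k, hk⟩ := IsPGroup.iff_card.1 A.isPGroup'
  have hA : Nat.card A ∣ 3 ^ 2 := by
    have := (Subgroup.card_subgroup_dvd_card (A : Subgroup G)).trans h
    rw [hk] at this ⊢
    exact (Nat.Coprime.pow_left k (by norm_num : Nat.Coprime 3 2)).dvd_of_dvd_mul_right this
  have hcomm : ∀ a ∈ (A : Subgroup G), ∀ b ∈ (A : Subgroup G), a * b = b * a := by
    intro a ha b hb
    obtain ⟨j, hj, e⟩ := (Nat.dvd_prime_pow Nat.prime_three).1 hA
    have : IsMulCommutative (A : Subgroup G) := by
      interval_cases j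
      · have := (Nat.card_eq_one_iff_unique.1 e).1
        infer_instance
      · have := isCyclic_of_prime_card (p := 3) e
        infer_instance
      · exact IsPGroup.isMulCommutative_of_card_eq_prime_sq e
    exact congrArg Subtype.val (this.is_comm.comm (⟨a, ha⟩ : (A : Subgroup G)) ⟨b, hb⟩)
  have hi : (A : Subgroup G).index = 2 := by
    have h1 : (A : Subgroup G).index ∣ 2 :=
      (Nat.Coprime.pow_right 2 ((Nat.Prime.coprime_iff_not_dvd Nat.prime_three).2
        A.not_dvd_index).symm).dvd_of_dvd_mul_left ((Subgroup.index_dvd_card _).trans h)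
    refine ((Nat.dvd_prime Nat.prime_two).1 h1).resolve_left fun e => hc ?_
    rw [Subgroup.index_eq_one] at e
    rw [commutator_eq_bot_iff_center_eq_top, eq_top_iff]
    exact fun x _ => Subgroup.mem_center_iff.2 fun y => hcomm y (e ▸ trivial) x (e ▸ trivial)
  have := Subgroup.normal_of_index_eq_two hi
  obtain ⟨χ, hχ, h1⟩ : ∃ χ, IsIrrCharacter G χ ∧ χ 1 ≠ 1 := by
    by_contra! h1
    exact hc (eq_bot_iff.2 fun g hg => H28.mem_of_forall_charKer ⊥ fun χ hχ _ =>
      hχ.degree_one_iff.1 (h1 χ hχ) hg)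
  have hd : charDegree χ = 2 := ((Nat.dvd_prime Nat.prime_two).1
    (hi ▸ hχ.charDegree_dvd_index A hcomm)).resolve_left fun e =>
      h1 (hχ.isCharacter.charDegree_eq_one_iff.1 e)
  have hf : (Nat.card G).factorization 2 = 1 := by
    rw [← (A : Subgroup G).index_mul_card, hi, hk, Nat.factorization_mul (by norm_num) (by positivity)]
    simp [Nat.prime_two.factorization_self, Nat.prime_three.factorization]
  refine ⟨χ, hχ, fun P => ⟨?_, fun x hx h1 => ?_⟩⟩
  · rw [hχ.isCharacter.charDegree_eq_iff.1 hd]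
    exact congrArg Nat.cast (P.card_eq_multiplicity.trans (by rw [hf]; rfl)).symm
  · refine H29.eq_zero_of_pow_factorization_dvd Nat.prime_two hχ (by rw [hf, hd]; rfl) ?_
    obtain ⟨k, hk⟩ := IsPGroup.iff_orderOf.1 P.isPGroup' ⟨x, hx⟩
    rw [Subgroup.orderOf_mk] at hk
    rw [hk]
    exact dvd_pow_self 2 fun h => h1 (by rwa [h, pow_zero, orderOf_eq_one_iff] at hk)

end H54
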