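import Cfsg.Agent.H54.LieAut
import Cfsg.Agent.H14.FStar
import Cfsg.Agent.H63.CpQuot

/-! # S2876: `p`-rank of the centraliser of an involutory automorphism. Interface.

See `blueprints/PPSS-h54.md`. -/

set_option autoImplicit false

namespace H54.PR

open Cfsg H64

universe u

/-- The fixed subgroup of an automorphism. -/
def Fix {K : Type*} [Group K] (φ : MulAut K) : Subgroup K :=
  φ.toMonoidHom.eqLocus (MonoidHom.id K)

theorem mem_Fix {K : Type*} [Group K] {φ : MulAut K} {x : K} : x ∈ Fix φ ↔ φ x = x := Iff.rfl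

/-- Every automorphism with square one fixes a subgroup `p × p`. -/
def PR (p : ℕ) (K : Type*) [Group K] : Prop :=
  ∀ φ : MulAut K, φ * φ = 1 → PRankAtLeast p 2 (Fix φ)

theorem rank_of_inj {A B : Type*} [Group A] [Group B] {p k : ℕ} (f : A →* B)
    (hf : Function.Injective f) (h : PRankAtLeast p k A) : PRankAtLeast p k B := by
  obtain ⟨E, hE, hp, h⟩ := h
  exact ⟨E.map f, inferInstance, by rintro _ ⟨a, ha, rfl⟩; rw [← map_pow, hp a ha, map_one],
    by rwa [Subgroup.card_map_of_injective hf]⟩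

theorem PR.congr {K K' : Type*} [Group K] [Group K'] {p : ℕ} (h : PR p K) (e : K ≃* K') :
    PR p K' := fun φ hφ => by
  have h1 := h ((e.trans φ).trans e.symm) (by
    ext x
    have := DFunLike.congr_fun hφ (e x)
    simp only [MulAut.mul_apply, MulAut.one_apply] at this
    simp [MulAut.mul_apply, this])
  refine rank_of_inj ((e.toMonoidHom.comp (Fix _).subtype).codRestrict (Fix φ) fun x => ?_) ?_ h1
  · have := mem_Fix.1 x.2
    exact mem_Fix.2 (e.symm.injective (by simpa using this))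
  · intro a b hab
    exact Subtype.ext (e.injective (congrArg Subtype.val hab))

variable {p : ℕ} {K : Type*} [Group K]

/-- What is needed in rank two when the root group at `i` is cyclic (types `G₂`, `³D₄`). -/
structure HexAt (L : LieS p K) (i j : L.ι) : Prop where
  m3 : L.R.s i (L.R.p j) ≠ L.R.s j (L.R.p i)
  m4 : L.R.s j (L.R.s i (L.R.p j)) ≠ L.R.s i (L.R.p j)
  m5 : L.R.s i (L.R.s j (L.R.p i)) ≠ L.R.s j (L.R.s i (L.R.p j))
  ex1 : ∀ c ∈ L.T.Up j, c ^ p = 1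
  ex2 : IsCyclic (L.T.X (L.R.p j)) → ∀ c ∈ L.T.U, c ^ p ^ 2 = 1

/-- Rank at least two; in rank two no fundamental root group is cyclic, except for hexagons. -/
def Good (L : LieS p K) : Prop :=
  Nontrivial L.ι ∧ ∀ i j : L.ι, i ≠ j → (∀ k, k = i ∨ k = j) → IsCyclic (L.T.X (L.R.p i)) →
    HexAt L i j

/-- `K` has a good structure. -/
def HasGood (p : ℕ) (K : Type*) [Group K] : Prop := ∃ L : LieS p K, Good L

theorem good_of_three (L : LieS p K) {a b c : L.ι} (h1 : a ≠ b) (h2 : a ≠ c) (h3 : b ≠ c) :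
    Good L := ⟨⟨a, b, h1⟩, fun i j _ h _ => by
  rcases h a with rfl | rfl <;> rcases h b with rfl | rfl <;> rcases h c with rfl | rfl <;>
    simp_all⟩

theorem good_of_not_cyclic (L : LieS p K) (h0 : Nontrivial L.ι)
    (h : ∀ i, ¬ IsCyclic (L.T.X (L.R.p i))) : Good L := ⟨h0, fun i _ _ _ hc => (h i hc).elim⟩

/-- The generic theorem (helper54). -/
def Core : Prop := ∀ (p : ℕ) [Fact p.Prime] (K : Type) [Group K] [Finite K] [IsSimpleGroup K],
  p ≠ 2 → HasGood p K → PR p K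

/-- Linear and symplectic groups. -/
def JobLS : Prop := ∀ (p : ℕ) [Fact p.Prime] (F : Type) [Field F] [Fintype F] [CharP F p] (n : ℕ),
  p ≠ 2 → ((4 ≤ n ∨ (n = 3 ∧ Fintype.card F ≠ p)) →
    HasGood p (Matrix.ProjectiveSpecialLinearGroup (Fin n) F)) ∧
  ((3 ≤ n ∨ (n = 2 ∧ Fintype.card F ≠ p)) → HasGood p (PSp n F))

/-- Orthogonal groups. -/
def JobO : Prop := ∀ (p : ℕ) [Fact p.Prime] (F : Type) [Field F] [Fintype F] [CharP F p] (m : ℕ),
  p ≠ 2 → (3 ≤ m → HasGood p (POmega F (quadFormOdd m F))) ∧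
  (4 ≤ m → HasGood p (POmega F (quadFormPlus m F))) ∧
  ∀ a b : F, 3 ≤ m → (∀ z₁ z₂ : F, z₁ ^ 2 + a * z₁ * z₂ + b * z₂ ^ 2 = 0 → z₁ = 0 ∧ z₂ = 0) →
    HasGood p (POmega F (quadFormMinus m F a b))

/-- Exceptional groups. -/
def JobE : Prop := ∀ (p : ℕ) [Fact p.Prime] (F : Type) [Field F] [Fintype F] [CharP F p],
  p ≠ 2 → HasGood p (Lie.chevG2.group F) ∧ HasGood p (Lie.chevF4.group F) ∧
    HasGood p (Lie.chevE6.group F) ∧ HasGood p (Lie.chevE7.group F) ∧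
    HasGood p (Lie.chevE8.group F) ∧ ∀ q : ℕ, IsPrimePow q →
      (Fintype.card F = q ^ 2 → HasGood p (Lie.twistedE6 F q)) ∧
      (Fintype.card F = q ^ 3 → HasGood p (Lie.twistedD4 F q))

/-- Unitary groups. -/
def JobU : Prop := ∀ (p : ℕ) [Fact p.Prime] (F : Type) [Field F] [Fintype F] [CharP F p]
  (n q : ℕ), p ≠ 2 → Fintype.card F = q ^ 2 → (4 ≤ n ∨ (n = 3 ∧ q ≠ p)) → PR p (PSU n F q)

/-- Ree groups. -/
def JobR : Prop := ∀ (F : Type) [Field F] [Fintype F] (m : ℕ), 1 ≤ m →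
  Fintype.card F = 3 ^ (2 * m + 1) → PR 3 (Lie.twistedG2 F (3 ^ m))

theorem s2876 (core : Core) (hLS : JobLS) (hO : JobO) (hE : JobE) (hU : JobU) (hR : JobR)
    {X : Type*} [Group X] [Finite X] {p : ℕ} [Fact p.Prime] (hp : p ≠ 2)
    (hK : IsChevSimple p (generalizedFittingSubgroup X)) :
    (∀ x : X, orderOf x = 2 → PRankAtLeast p 2 (Subgroup.centralizer ({x} : Set X))) ∨
    (∃ (F : Type) (_ : Field F) (_ : Fintype F) (n : ℕ), 1 ≤ n ∧ Fintype.card F = p ^ n ∧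
      Nonempty (generalizedFittingSubgroup X ≃* Matrix.ProjectiveSpecialLinearGroup (Fin 2) F)) ∨
    (∃ (F : Type) (_ : Field F) (_ : Fintype F), Fintype.card F = p ∧
      (Nonempty (generalizedFittingSubgroup X ≃* Matrix.ProjectiveSpecialLinearGroup (Fin 3) F) ∨
        Nonempty (generalizedFittingSubgroup X ≃* PSp 2 F))) ∨
    (∃ (F : Type) (_ : Field F) (_ : Fintype F), Fintype.card F = p ^ 2 ∧
      Nonempty (generalizedFittingSubgroup X ≃* PSU 3 F p)) ∨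
    (∃ (F : Type) (_ : Field F) (_ : Fintype F), Fintype.card F = 8 ∧
      Nonempty (generalizedFittingSubgroup X ≃* Matrix.ProjectiveSpecialLinearGroup (Fin 2) F)) := by
  rcases hK with hK | ⟨h, -⟩ | ⟨-, h⟩
  swap
  · exact (hp h).elim
  swap
  · exact Or.inr (Or.inr (Or.inr (Or.inr h)))
  have hs := isSimpleGroup_of_lieType hK
  have k1 : ∀ {Y : Type} [Group Y], PR p Y → (generalizedFittingSubgroup X ≃* Y) →
      ∀ x : X, orderOf x = 2 → PRankAtLeast p 2 (Subgroup.centralizer ({x} : Set X)) := by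
    intro Y _ h e x hx
    have h2 : x * x = 1 := by rw [← pow_two, ← hx, pow_orderOf_eq_one]
    have h1 := h.congr e.symm (MulAut.conjNormal x) (by rw [← map_mul, h2, map_one])
    refine rank_of_inj ((((generalizedFittingSubgroup X).subtype).comp (Fix _).subtype).codRestrict
      _ fun y => ?_) ?_ h1
    · have := congrArg Subtype.val (mem_Fix.1 y.2)
      rw [MulAut.conjNormal_apply, mul_inv_eq_iff_eq_mul] at this
      exact Subgroup.mem_centralizer_singleton_iff.2 this.symm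
    · intro a b hab
      have := congrArg Subtype.val hab
      exact Subtype.ext (Subtype.ext this)
  have k2 : ∀ {Y : Type} [Group Y], HasGood p Y → (generalizedFittingSubgroup X ≃* Y) →
      ∀ x : X, orderOf x = 2 → PRankAtLeast p 2 (Subgroup.centralizer ({x} : Set X)) := by
    intro Y _ h e
    have := Finite.of_equiv _ e.toEquiv
    have := e.symm.isSimpleGroup
    exact k1 (core p Y hp h) e
  rcases hK with ⟨F, _, _, _, n, hn, h, ⟨e⟩⟩ | ⟨F, _, _, _, n, hn, h, ⟨e⟩⟩ |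
    ⟨F, _, _, _, n, q, hF, hn, h, ⟨e⟩⟩ | ⟨F, _, _, _, n, hn, h, ⟨e⟩⟩ | ⟨F, _, _, _, n, hn, ⟨e⟩⟩ |
    ⟨F, _, _, _, n, a, b, hn, h, ⟨e⟩⟩ | ⟨F, _, _, _, h⟩ | ⟨F, _, _, _, q, hq, h⟩ |
    ⟨h, -⟩ | ⟨h, -⟩ | ⟨rfl, F, _, _, m, hm, hF, ⟨e⟩⟩
  · by_cases h2 : n = 2
    · subst h2
      obtain ⟨k, -, hk⟩ := FiniteField.card F p
      exact Or.inr (Or.inl ⟨F, _, _, k, k.2, hk, ⟨e⟩⟩)
    by_cases h3 : n = 3 ∧ Fintype.card F = p
    · obtain ⟨rfl, h3⟩ := h3
      exact Or.inr (Or.inr (Or.inl ⟨F, _, _, h3, Or.inl ⟨e⟩⟩))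
    exact Or.inl (k2 ((hLS p F n hp).1 (by omega)) e)
  · by_cases h3 : n = 2 ∧ Fintype.card F = p
    · obtain ⟨rfl, h3⟩ := h3
      exact Or.inr (Or.inr (Or.inl ⟨F, _, _, h3, Or.inr ⟨e⟩⟩))
    exact Or.inl (k2 ((hLS p F n hp).2 (by omega)) e)
  · by_cases h3 : n = 3 ∧ q = p
    · obtain ⟨rfl, rfl⟩ := h3
      exact Or.inr (Or.inr (Or.inr (Or.inl ⟨F, _, _, hF, ⟨e⟩⟩)))
    exact Or.inl (k1 (hU p F n q hp hF (by omega)) e)
  · exact Or.inl (k2 ((hO p F n hp).1 hn) e)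
  · exact Or.inl (k2 ((hO p F n hp).2.1 hn) e)
  · exact Or.inl (k2 ((hO p F (n - 1) hp).2.2 a b (by omega) h) e)
  · obtain ⟨h1, h2, h3, h4, h5, -⟩ := hE p F hp
    rcases h with ⟨-, ⟨e⟩⟩ | ⟨⟨e⟩⟩ | ⟨⟨e⟩⟩ | ⟨⟨e⟩⟩ | ⟨⟨e⟩⟩
    exacts [Or.inl (k2 h1 e), Or.inl (k2 h2 e), Or.inl (k2 h3 e), Or.inl (k2 h4 e), Or.inl (k2 h5 e)]
  · obtain ⟨h1, h2⟩ := (hE p F hp).2.2.2.2.2 q hq
    rcases h with ⟨hF, ⟨e⟩⟩ | ⟨hF, ⟨e⟩⟩
    exacts [Or.inl (k2 (h1 hF) e), Or.inl (k2 (h2 hF) e)]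
  · exact (hp h).elim
  · exact (hp h).elim
  · exact Or.inl (k1 (hR F m hm hF) e)

end H54.PR
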