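import Cfsg.Agent.H41.LDKit2
import Cfsg.Agent.H25.TvPair

/-! LD5, transvection part: systems of transvections in any dimension. -/

set_option autoImplicit false

open Matrix Cfsg Cfsg.Geo H19 H41.LD
open scoped MatrixGroups commutatorElement

namespace H54.T5

universe u

variable {F : Type u} [Field F] {n : ℕ}

theorem left_ne {u w : Fin n → F} (h : u ⬝ᵥ w ≠ 0) : u ≠ 0 := by rintro rfl; simp at h

theorem right_ne {u w : Fin n → F} (h : u ⬝ᵥ w ≠ 0) : w ≠ 0 := by rintro rfl; simp at h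

theorem tv_mulVec (u φ v : Fin n → F) : (1 + N (u, φ)) *ᵥ v = v + (φ ⬝ᵥ v) • u := by
  rw [add_mulVec, one_mulVec, N_mulVec]

theorem vecMul_tv (u φ ψ : Fin n → F) : ψ ᵥ* (1 + N (u, φ)) = ψ + (ψ ⬝ᵥ u) • φ := by
  rw [vecMul_add, vecMul_one, vecMul_N]

theorem mulVec_ne (g : GL (Fin n) F) {v : Fin n → F} (h : v ≠ 0) : g.val *ᵥ v ≠ 0 := fun h0 =>
  h (by simpa using congrArg ((g⁻¹).val *ᵥ ·) h0)

theorem vecMul_ne (g : GL (Fin n) F) {v : Fin n → F} (h : v ≠ 0) : v ᵥ* g.val ≠ 0 := fun h0 =>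
  h (by simpa using congrArg (· ᵥ* (g⁻¹).val) h0)

/-- A proper subspace is killed by a non-zero covector. -/
theorem exists_kill {W : Submodule F (Fin n → F)} (h : W ≠ ⊤) :
    ∃ a : Fin n → F, a ≠ 0 ∧ ∀ w ∈ W, a ⬝ᵥ w = 0 := by
  obtain ⟨f, hf, hW⟩ := W.exists_le_ker_of_lt_top (lt_top_iff_ne_top.2 h)
  have e : ∀ w, (fun i => f (Pi.single i 1)) ⬝ᵥ w = f w := fun w => by
    rw [LinearMap.pi_apply_eq_sum_univ f w, dotProduct]
    refine Finset.sum_congr rfl fun i _ => ?_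
    rw [smul_eq_mul, mul_comm]
    congr 2; funext j; simp [Pi.single_apply, eq_comm]
  exact ⟨_, fun h0 => hf (LinearMap.ext fun w => by rw [← e, h0]; simp),
    fun w hw => (e w).trans (hW hw)⟩

/-- A vector outside a subspace is separated from it by a covector. -/
theorem exists_sep {W : Submodule F (Fin n → F)} {v : Fin n → F} (h : v ∉ W) :
    ∃ a : Fin n → F, a ⬝ᵥ v = 1 ∧ ∀ w ∈ W, a ⬝ᵥ w = 0 := by
  obtain ⟨f, hf, hW⟩ := Submodule.exists_dual_map_eq_bot_of_notMem h inferInstance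
  have e : ∀ w, (fun i => f (Pi.single i 1)) ⬝ᵥ w = f w := fun w => by
    rw [LinearMap.pi_apply_eq_sum_univ f w, dotProduct]
    refine Finset.sum_congr rfl fun i _ => ?_
    rw [smul_eq_mul, mul_comm]
    congr 2; funext j; simp [Pi.single_apply, eq_comm]
  refine ⟨(f v)⁻¹ • fun i => f (Pi.single i 1), by rw [smul_dotProduct, e]; simp [hf],
    fun w hw => ?_⟩
  rw [smul_dotProduct, e, (Submodule.eq_bot_iff _).1 hW _ ⟨w, hw, rfl⟩, smul_zero]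

/-- The annihilator of a set of vectors. -/
def ann (S : Set (Fin n → F)) : Submodule F (Fin n → F) where
  carrier := {a | ∀ w ∈ S, a ⬝ᵥ w = 0}
  add_mem' ha hb w hw := by rw [add_dotProduct, ha w hw, hb w hw, add_zero]
  zero_mem' _ _ := by simp
  smul_mem' c a ha w hw := by rw [smul_dotProduct, ha w hw, smul_zero]

theorem mem_ann {S : Set (Fin n → F)} {a : Fin n → F} : a ∈ ann S ↔ ∀ w ∈ S, a ⬝ᵥ w = 0 := Iff.rfl

theorem dot_span {S : Set (Fin n → F)} {a w : Fin n → F} (h : ∀ v ∈ S, a ⬝ᵥ v = 0)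
    (hw : w ∈ Submodule.span F S) : a ⬝ᵥ w = 0 := by
  rw [dotProduct_comm]
  exact (Submodule.span_le (p := ann {a})).2
    (fun v hv b hb => by rw [hb, dotProduct_comm, h v hv]) hw a rfl

/-! ### abstract systems -/

/-- Closure properties of the set of pairs (centre, axis). -/
structure TB (T : (Fin n → F) → (Fin n → F) → Prop) : Prop where
  orth : ∀ {u φ}, T u φ → φ ⬝ᵥ u = 0
  smul_iff : ∀ {u φ} (c : F), T (c • u) φ ↔ T u (c • φ)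
  addL : ∀ {u w φ}, T u φ → T w φ → T (u + w) φ
  addR : ∀ {u φ ψ}, T u φ → T u ψ → T u (φ + ψ)
  neg : ∀ {u φ}, T u φ → T (-u) φ
  conj : ∀ {u φ w ψ}, T u φ → T w ψ → T (w + (φ ⬝ᵥ w) • u) (ψ - (ψ ⬝ᵥ u) • φ)

variable {T S : (Fin n → F) → (Fin n → F) → Prop} {u w φ ψ : Fin n → F}

namespace TB

theorem negR (h : TB T) (h1 : T u φ) : T u (-φ) := by
  simpa using (h.smul_iff (-1)).1 (by simpa using h.neg h1)

theorem swap (h : TB T) : TB fun φ u => T u φ where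
  orth h1 := by rw [dotProduct_comm, h.orth h1]
  smul_iff c := (h.smul_iff c).symm
  addL := h.addR
  addR := h.addL
  neg := h.negR
  conj h1 h2 := by simpa [dotProduct_comm, sub_eq_add_neg] using h.conj (h.neg h1) h2

theorem rescale (h : TB T) (h1 : T u φ) {c : F} (hc : c ≠ 0) : T (c • u) (c⁻¹ • φ) := by
  rwa [h.smul_iff, smul_inv_smul₀ hc]

theorem commL (h : TB T) (h1 : T u φ) (h2 : T w ψ) (h3 : ψ ⬝ᵥ u = 0) : T ((φ ⬝ᵥ w) • u) ψ := by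
  have := h.conj h1 h2
  rw [h3, zero_smul, sub_zero] at this
  simpa using h.addL this (h.neg h2)

theorem commR (h : TB T) (h1 : T u φ) (h2 : T w ψ) (h3 : φ ⬝ᵥ w = 0) : T w ((ψ ⬝ᵥ u) • φ) := by
  have := h.swap.commL h1 h2 (by rwa [dotProduct_comm])
  rwa [dotProduct_comm] at this

theorem conj' (h : TB T) (h1 : T u φ) (h2 : T w ψ) : T (w - (φ ⬝ᵥ w) • u) (ψ + (ψ ⬝ᵥ u) • φ) := by
  simpa [sub_eq_add_neg] using h.conj (h.neg h1) h2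

theorem subL (h : TB T) (h1 : T u φ) (h2 : T w φ) : T (u - w) φ := by
  simpa [sub_eq_add_neg] using h.addL h1 (h.neg h2)

theorem subR (h : TB T) (h1 : T u φ) (h2 : T u ψ) : T u (φ - ψ) := by
  simpa [sub_eq_add_neg] using h.addR h1 (h.negR h2)

theorem zeroR (h : TB T) (h1 : T u φ) : T u 0 := by simpa using h.subR h1 h1

theorem zeroL (h : TB T) (h1 : T u φ) : T 0 φ := by simpa using h.subL h1 h1

end TB

/-- No proper non-zero subspace is invariant under the family. -/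
def Out (S : (Fin n → F) → (Fin n → F) → Prop) : Prop :=
  ∀ W : Submodule F (Fin n → F), W ≠ ⊥ → W ≠ ⊤ → ∃ u φ, S u φ ∧ u ∉ W ∧ ∃ w ∈ W, φ ⬝ᵥ w ≠ 0

theorem Out.swap (h : Out S) : Out fun φ u => S u φ := fun W h0 h1 => by
  obtain ⟨a, a0, ha⟩ := exists_kill h1
  obtain ⟨b, hb, b0⟩ := (Submodule.ne_bot_iff _).1 h0
  obtain ⟨c, hc⟩ := exists_dot_one b0
  obtain ⟨u, φ, s, hu, w, hw, e⟩ := h (ann W) ((Submodule.ne_bot_iff _).2 ⟨a, ha, a0⟩) fun e =>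
    one_ne_zero (hc.symm.trans ((e ▸ Submodule.mem_top : c ∈ ann (W : Set (Fin n → F))) b hb))
  refine ⟨φ, u, s, fun hφ => e (by rw [dotProduct_comm]; exact hw φ hφ), ?_⟩
  by_contra! hc
  exact hu hc

theorem Out.mono (h : Out S) (e : ∀ u φ, S u φ → T u φ) : Out T := fun W h0 h1 =>
  let ⟨u, φ, s, r⟩ := h W h0 h1; ⟨u, φ, e u φ s, r⟩

/-- Every pair of a point and a hyperplane has an opposite in an irreducible closed family. -/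
theorem Out.opp (hn : 2 ≤ n) (h : Out S)
    (hc : ∀ u φ w ψ, S u φ → S w ψ → S (w + (φ ⬝ᵥ w) • u) (ψ - (ψ ⬝ᵥ u) • φ))
    (hu : u ≠ 0) (hφ : φ ≠ 0) : ∃ w ψ, S w ψ ∧ φ ⬝ᵥ w ≠ 0 ∧ ψ ⬝ᵥ u ≠ 0 := by
  by_contra! hno
  let U := Submodule.span F {w | ∃ ψ, S w ψ ∧ ψ ⬝ᵥ u ≠ 0}
  have hU : ∀ w ∈ U, φ ⬝ᵥ w = 0 := fun w hw =>
    dot_span (S := {w | ∃ ψ, S w ψ ∧ ψ ⬝ᵥ u ≠ 0})
      (fun v ⟨ψ, a, b⟩ => by_contra fun c => b (hno v ψ a c)) hw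
  obtain ⟨w, ψ, a1, a2, v, a3, a4⟩ := h (Submodule.span F {u}) (by simpa using hu) (by
    have := span_ne_top (K := F) (m := 1) (n := n) (by omega) ![u]
    simpa using this)
  obtain ⟨c, rfl⟩ := Submodule.mem_span_singleton.1 a3
  have a5 : ψ ⬝ᵥ u ≠ 0 := fun e => a4 (by simp [e])
  obtain ⟨a, ha⟩ := exists_dot_one hφ
  obtain ⟨x, χ, b1, b2, v, b3, b4⟩ := h U ((Submodule.ne_bot_iff _).2
    ⟨w, Submodule.subset_span ⟨ψ, a1, a5⟩, fun e => a2 (by simp [e])⟩) fun e =>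
      one_ne_zero (ha.symm.trans (by rw [dotProduct_comm]; exact hU a (e ▸ Submodule.mem_top)))
  have b5 : χ ⬝ᵥ u = 0 := by_contra fun e => b2 (Submodule.subset_span ⟨χ, b1, e⟩)
  refine b4 (dot_span (S := {w | ∃ ψ, S w ψ ∧ ψ ⬝ᵥ u ≠ 0})
    (fun v ⟨η, c1, c2⟩ => by_contra fun c3 => b2 ?_) b3)
  have d1 : v + (χ ⬝ᵥ v) • x ∈ U := Submodule.subset_span ⟨_, hc _ _ _ _ b1 c1, by simpa [b5]⟩
  have d2 := U.smul_mem (χ ⬝ᵥ v)⁻¹ (U.sub_mem d1 (Submodule.subset_span ⟨η, c1, c2⟩))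
  rwa [add_sub_cancel_left, inv_smul_smul₀ c3] at d2

/-! ### the system of a group -/

/-- The transvection `1 + u φ`. -/
def tv (u φ : Fin n → F) (h : φ ⬝ᵥ u = 0) : GL (Fin n) F :=
  ⟨1 + N (u, φ), 1 + N (-u, φ),
    by simp [mul_add, add_mul, N_mk_mul, h, N_neg_left],
    by simp [mul_add, add_mul, N_mk_mul, h, N_neg_left]⟩

theorem tv_val (h : φ ⬝ᵥ u = 0) : (tv u φ h).val = 1 + N (u, φ) := rfl

theorem tv_inv_val (h : φ ⬝ᵥ u = 0) : ((tv u φ h)⁻¹).val = 1 + N (-u, φ) := rfl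

/-- The transvections of a group as a relation. -/
abbrev TV (G : Subgroup (GL (Fin n) F)) (u φ : Fin n → F) : Prop := Tv G (u, φ)

variable {G : Subgroup (GL (Fin n) F)}

theorem TV.mem (h : TV G u φ) : tv u φ h.1 ∈ G := by
  obtain ⟨g, h1, h2⟩ := h.2
  rwa [show tv u φ h.1 = g from Units.ext h2.symm]

theorem TV.of_mem {h : φ ⬝ᵥ u = 0} (h1 : tv u φ h ∈ G) : TV G u φ := ⟨h, _, h1, rfl⟩

theorem TV.conj {g : GL (Fin n) F} (hg : g ∈ G) (h : TV G u φ) :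
    TV G (g.val *ᵥ u) (φ ᵥ* (g⁻¹).val) := Tv.conj h hg

theorem cg_tv (h : φ ⬝ᵥ u = 0) (w ψ : Fin n → F) :
    cg (tv u φ h) (w, ψ) = (w + (φ ⬝ᵥ w) • u, ψ - (ψ ⬝ᵥ u) • φ) := by
  simp only [cg, tv_val, tv_inv_val, tv_mulVec, vecMul_tv]
  simp [sub_eq_add_neg]

theorem tb (G : Subgroup (GL (Fin n) F)) : TB (TV G) where
  orth h := h.1
  smul_iff c := by simp [TV, Tv, N_smul_left, N_smul_right]
  addL h1 h2 := ⟨by simpa using add_eq_zero_iff_eq_neg.2 (by simp [show _ ⬝ᵥ _ = _ from h1.1,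
      show _ ⬝ᵥ _ = _ from h2.1]), _, G.mul_mem h1.mem h2.mem, by
    simp [tv, mul_add, add_mul, N_mk_mul, show _ ⬝ᵥ _ = _ from h2.1, add_assoc, N_add_left]⟩
  addR h1 h2 := ⟨by simpa using add_eq_zero_iff_eq_neg.2 (by simp [show _ ⬝ᵥ _ = _ from h1.1,
      show _ ⬝ᵥ _ = _ from h2.1]), _, G.mul_mem h1.mem h2.mem, by
    simp [tv, mul_add, add_mul, N_mk_mul, show _ ⬝ᵥ _ = _ from h1.1, add_assoc, N_add_right]⟩
  neg h := ⟨by simpa using h.1, _, G.inv_mem h.mem, rfl⟩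
  conj {u φ w ψ} h1 h2 := show Tv G (_, _) from cg_tv (u := u) (φ := φ) h1.1 w ψ ▸ Tv.conj h2 h1.mem

theorem tv_notMem_scalars (hn : 2 ≤ n) (h : φ ⬝ᵥ u = 0) (hu : u ≠ 0) (hφ : φ ≠ 0) :
    tv u φ h ∉ scalars (Fin n) F :=
  not_mem_scalars_of_rk hn (x := (u, φ)) (a := 1) (c := 1) (fun e => (N_eq_zero.1 e).elim hu hφ)
    one_ne_zero (by simp [tv_val])

/-- Normal subgroups of a quasisimple group. -/
theorem le_of_normal {P L : Subgroup (GL (Fin 5) F)} (hP : QS P) (hle : L ≤ P)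
    (hN : ∀ g ∈ P, ∀ x ∈ L, g * x * g⁻¹ ∈ L) (hs : ¬ L ≤ scalars (Fin 5) F) : P ≤ L := by
  have := hP.simple
  have hn : (L.subgroupOf P).Normal := ⟨fun x hx g => hN g g.2 x hx⟩
  rcases (hn.map _ (QuotientGroup.mk'_surjective ((scalars (Fin 5) F).subgroupOf P))).eq_bot_or_eq_top
    with h | h
  · refine absurd (fun x hx => ?_) hs
    have h2 : QuotientGroup.mk' ((scalars (Fin 5) F).subgroupOf P) ⟨x, hle hx⟩ = 1 :=
      Subgroup.mem_bot.1 (h ▸ Subgroup.mem_map_of_mem _ (show _ ∈ L.subgroupOf P from hx))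
    exact (QuotientGroup.eq_one_iff (N := (scalars (Fin 5) F).subgroupOf P) ⟨x, hle hx⟩).1 h2
  have key : ∀ g ∈ P, ∃ x ∈ L, ∃ c ∈ scalars (Fin 5) F, g = x * c := fun g hg => by
    obtain ⟨x, hx, hxg⟩ : QuotientGroup.mk' ((scalars (Fin 5) F).subgroupOf P) ⟨g, hg⟩ ∈
      (L.subgroupOf P).map (QuotientGroup.mk' ((scalars (Fin 5) F).subgroupOf P)) :=
      h ▸ Subgroup.mem_top _
    exact ⟨x, hx, (x : GL (Fin 5) F)⁻¹ * g, (QuotientGroup.eq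
      (s := (scalars (Fin 5) F).subgroupOf P) (a := x) (b := ⟨g, hg⟩)).1 hxg, by simp⟩
  rw [← hP.perfect, Subgroup.commutator_le]
  intro a ha b hb
  obtain ⟨x, hx, c, hc, rfl⟩ := key a ha
  obtain ⟨y, hy, d, hd, rfl⟩ := key b hb
  have e : ⁅x * c, y * d⁆ = ⁅x, y⁆ := by
    have c1 := fun g => scalars_commute hc g
    have d1 := fun g => scalars_commute hd g
    simp only [commutatorElement_def, _root_.mul_inv_rev]
    calc x * c * (y * d) * (c⁻¹ * x⁻¹) * (d⁻¹ * y⁻¹)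
        = x * (c * (y * d)) * c⁻¹ * (x⁻¹ * d⁻¹) * y⁻¹ := by group
      _ = x * y * (d * x⁻¹) * d⁻¹ * y⁻¹ := by rw [c1]; group
      _ = _ := by rw [d1]; group
  rw [e, commutatorElement_def]
  exact L.mul_mem (L.mul_mem (L.mul_mem hx hy) (L.inv_mem hx)) (L.inv_mem hy)

/-- The group generated by a family of transvections. -/
def GenT (S : (Fin n → F) → (Fin n → F) → Prop) : Subgroup (GL (Fin n) F) :=
  Subgroup.closure {g | ∃ u φ, S u φ ∧ g.val = 1 + N (u, φ)}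

theorem genT_le (h : ∀ u φ, S u φ → TV G u φ) : GenT S ≤ G :=
  (Subgroup.closure_le _).2 fun _ ⟨u, φ, s, e⟩ => (Units.ext e : _ = tv u φ (h u φ s).1) ▸ (h u φ s).mem

theorem genT_induction (h : ∀ u φ, S u φ → φ ⬝ᵥ u = 0) {p : Matrix (Fin n) (Fin n) F → Prop}
    (h1 : p 1) (hm : ∀ u φ, S u φ → ∀ A, p A → p ((1 + N (u, φ)) * A) ∧ p ((1 + N (-u, φ)) * A))
    {g : GL (Fin n) F} (hg : g ∈ GenT S) : p g.val := by
  induction hg using Subgroup.closure_induction_left with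
  | one => exact h1
  | mul_left a ha b _ hb =>
    obtain ⟨u, φ, s, e⟩ := ha; rw [Units.val_mul, e]; exact (hm u φ s _ hb).1
  | inv_mul_cancel a ha b _ hb =>
    obtain ⟨u, φ, s, e⟩ := ha
    rw [show a = tv u φ (h u φ s) from Units.ext e, Units.val_mul, tv_inv_val]
    exact (hm u φ s _ hb).2

theorem le_genT {P : Subgroup (GL (Fin 5) F)} (hP : QS P) {S : (Fin 5 → F) → (Fin 5 → F) → Prop}
    (h : ∀ u φ, S u φ → TV P u φ) (hc : ∀ g ∈ P, ∀ u φ, S u φ → S (g.val *ᵥ u) (φ ᵥ* (g⁻¹).val))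
    {u φ : Fin 5 → F} (h1 : S u φ) (hu : u ≠ 0) (hφ : φ ≠ 0) : P ≤ GenT S := by
  refine le_of_normal hP (genT_le h) (fun g hg a ha => ?_) fun hle =>
    tv_notMem_scalars (by norm_num) (h u φ h1).1 hu hφ (hle (Subgroup.subset_closure ⟨u, φ, h1, rfl⟩))
  induction ha using Subgroup.closure_induction with
  | mem a ha =>
    obtain ⟨w, ψ, s, e⟩ := ha
    refine Subgroup.subset_closure ⟨_, _, hc g hg w ψ s, ?_⟩
    rw [Units.val_mul, Units.val_mul, e, mul_add, add_mul, mul_one, Units.mul_inv, ← N_cg]; rfl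
  | one => simp
  | mul a b _ _ ha hb => simpa [mul_assoc] using Subgroup.mul_mem _ ha hb
  | inv a _ ha => simpa [mul_assoc] using Subgroup.inv_mem _ ha

theorem out_of_gspan (h : ∀ u φ, S u φ → φ ⬝ᵥ u = 0) (hs : gspan (GenT S) = ⊤) : Out S :=
  fun W h0 h1 => by
    by_contra! hc
    refine (irr_iff.1 (irr_of_gspan_eq_top hs) W fun g hg => ?_).elim h0 h1
    refine genT_induction h (p := fun A => ∀ w ∈ W, A *ᵥ w ∈ W) (by simp)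
      (fun u φ s A hA => ?_) hg
    have key : ∀ v ∈ W, (φ ⬝ᵥ v) • u ∈ W := fun v hv => by
      by_cases hu : u ∈ W
      · exact W.smul_mem _ hu
      · simp [hc u φ s hu v hv]
    constructor <;> intro w hw <;> rw [← mulVec_mulVec, tv_mulVec]
    · exact W.add_mem (hA w hw) (key _ (hA w hw))
    · rw [smul_neg]; exact W.add_mem (hA w hw) (W.neg_mem (key _ (hA w hw)))

theorem out_of_qs {P : Subgroup (GL (Fin 5) F)} (hP : QS P) {S : (Fin 5 → F) → (Fin 5 → F) → Prop}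
    (h : ∀ u φ, S u φ → TV P u φ) (hc : ∀ g ∈ P, ∀ u φ, S u φ → S (g.val *ᵥ u) (φ ᵥ* (g⁻¹).val))
    {u φ : Fin 5 → F} (h1 : S u φ) (hu : u ≠ 0) (hφ : φ ≠ 0) : Out S :=
  out_of_gspan (fun u φ s => (h u φ s).1)
    (top_le_iff.1 (hP.span ▸ gspan_mono (le_genT hP h hc h1 hu hφ)))

/-- All transvections of `P` form an irreducible family. -/
theorem out_tv {P : Subgroup (GL (Fin 5) F)} (hP : QS P) {u φ : Fin 5 → F} (h1 : TV P u φ)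
    (hu : u ≠ 0) (hφ : φ ≠ 0) : Out (TV P) :=
  out_of_qs hP (fun _ _ => id) (fun _ hg _ _ s => s.conj hg) h1 hu hφ

theorem opp_tv {P : Subgroup (GL (Fin 5) F)} (hP : QS P) {u φ w ψ : Fin 5 → F} (h1 : TV P u φ)
    (hu : u ≠ 0) (hφ : φ ≠ 0) (hw : w ≠ 0) (hψ : ψ ≠ 0) :
    ∃ x χ, TV P x χ ∧ ψ ⬝ᵥ x ≠ 0 ∧ χ ⬝ᵥ w ≠ 0 :=
  (out_tv hP h1 hu hφ).opp (by norm_num) (fun _ _ _ _ => (tb P).conj) hw hψ

/-- Some conjugate of a transvection is opposite to a given pair. -/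
theorem opp_conj {P : Subgroup (GL (Fin 5) F)} (hP : QS P) {u φ w ψ : Fin 5 → F} (h1 : TV P u φ)
    (hu : u ≠ 0) (hφ : φ ≠ 0) (hw : w ≠ 0) (hψ : ψ ≠ 0) :
    ∃ g ∈ P, ψ ⬝ᵥ (cg g (u, φ)).1 ≠ 0 ∧ (cg g (u, φ)).2 ⬝ᵥ w ≠ 0 := by
  have a : ∀ x χ, (∃ g ∈ P, cg g (u, φ) = (x, χ)) → TV P x χ := fun x χ ⟨g, hg, e⟩ =>
    show Tv P (x, χ) from e ▸ Tv.conj h1 hg
  have b : ∀ k ∈ P, ∀ x χ, (∃ g ∈ P, cg g (u, φ) = (x, χ)) →
      ∃ g ∈ P, cg g (u, φ) = cg k (x, χ) := fun k hk x χ ⟨g, hg, e⟩ =>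
    ⟨k * g, P.mul_mem hk hg, by rw [cg_mul, e]⟩
  obtain ⟨x, χ, ⟨g, hg, e⟩, c⟩ := (out_of_qs hP a b ⟨1, P.one_mem, cg_one _⟩ hu hφ).opp (by norm_num)
    (fun x χ y η s t => cg_tv (a x χ s).1 y η ▸ b _ (a x χ s).mem y η t) hw hψ
  exact ⟨g, hg, by rwa [e]⟩

/-! ### opposite pairs -/

theorem exists_res (hn : 3 ≤ n) (h1 : φ ⬝ᵥ u = 0) (h2 : ψ ⬝ᵥ w = 0) (a1 : φ ⬝ᵥ w ≠ 0)
    (a2 : ψ ⬝ᵥ u ≠ 0) : ∃ (U : Matrix (Fin n) (Fin 3) F) (Φ : Matrix (Fin 3) (Fin n) F)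
      (u' φ' w' ψ' : Fin 3 → F), Φ * U = 1 ∧ U *ᵥ u' = u ∧ U *ᵥ w' = w ∧ φ' ᵥ* Φ = φ ∧
        ψ' ᵥ* Φ = ψ := by
  have hd : Dual ![u, w] ![(ψ ⬝ᵥ u)⁻¹ • ψ, (φ ⬝ᵥ w)⁻¹ • φ] := fun i j => by
    fin_cases i <;> fin_cases j <;> simp [h1, h2, a1, a2]
  obtain ⟨E, e1, e2⟩ := hd.exists_ext (by omega)
  refine ⟨_, _, Pi.single 0 1, Pi.single 1 (φ ⬝ᵥ w), Pi.single 1 1, Pi.single 0 (ψ ⬝ᵥ u),
    (hd.snoc e1 e2).mul, ?_, ?_, ?_, ?_⟩
  · ext i; simp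
  · ext i; simp
  · ext i; simp [a1]
  · ext i; simp [a2]

/-- The rank one lemma. -/
theorem pair [Finite F] (hn : 3 ≤ n) (h1 : TV G u φ) (h2 : TV G w ψ) (a1 : φ ⬝ᵥ w ≠ 0)
    (a2 : ψ ⬝ᵥ u ≠ 0) :
    ∃ K : Subfield F, (∀ x, x ∈ K ↔ TV G (x • u) φ) ∧ (∀ x, x ∈ K ↔ TV G (x • w) ψ) ∧
      (φ ⬝ᵥ w * ψ ⬝ᵥ u ∈ K ∨ H25.Tv3.Exc K (φ ⬝ᵥ w * ψ ⬝ᵥ u) ∨ Two K) := by
  obtain ⟨U, Φ, u, φ, w, ψ, h, rfl, rfl, rfl, rfl⟩ := exists_res hn h1.1 h2.1 a1 a2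
  have d := fun a b c e : Fin 3 → F => up_dot h (a, b) (c, e)
  simp only [up] at d
  have e : ∀ a b, H25.Tv3.TV (G.comap (thG h)) a b ↔ TV G (U *ᵥ a) (b ᵥ* Φ) := fun a b =>
    tv_comap h (y := (a, b))
  rw [d 0 φ w 0] at a1 ⊢
  rw [d 0 ψ u 0] at a2 ⊢
  obtain ⟨K, k1, k2, k3⟩ := ((e _ _).2 h1).pair ((e _ _).2 h2) a1 a2
  exact ⟨K, fun x => by rw [k1, e, mulVec_smul], fun x => by rw [k2, e, mulVec_smul], k3⟩

/-- Two opposite flags are swapped by a third one. -/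
def Sw (T : (Fin n → F) → (Fin n → F) → Prop) : Prop :=
  ∀ u φ w ψ, T u φ → T w ψ → φ ⬝ᵥ w ≠ 0 → ψ ⬝ᵥ u ≠ 0 → ∃ c : F, c ^ 2 * φ ⬝ᵥ w = ψ ⬝ᵥ u ∧
    T (u + c • w) ((ψ ⬝ᵥ u)⁻¹ • ψ + (c * φ ⬝ᵥ w)⁻¹ • φ)

theorem sw_tv [Finite F] (hn : 3 ≤ n) (h2 : (2 : F) = 0) (G : Subgroup (GL (Fin n) F)) :
    Sw (TV G) := fun u φ w ψ h1 h1' a1 a2 => by
  obtain ⟨U, Φ, u, φ, w, ψ, h, rfl, rfl, rfl, rfl⟩ := exists_res hn h1.1 h1'.1 a1 a2
  have d := fun a b c e : Fin 3 → F => up_dot h (a, b) (c, e)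
  simp only [up] at d
  have e : ∀ a b, H25.Tv3.TV (G.comap (thG h)) a b ↔ TV G (U *ᵥ a) (b ᵥ* Φ) := fun a b =>
    tv_comap h (y := (a, b))
  rw [d 0 φ w 0] at a1 ⊢
  rw [d 0 ψ u 0] at a2 ⊢
  obtain ⟨c, c1, c2⟩ := H25.Tv3.sw h2 _ _ _ _ _ ((e _ _).2 h1) ((e _ _).2 h1') a1 a2
  exact ⟨c, c1, by simpa only [e, mulVec_add, mulVec_smul, add_vecMul, smul_vecMul] using c2⟩

theorem Sw.swap (hs : Sw T) (h : TB T) : Sw fun φ u => T u φ := by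
  intro φ u ψ w h1 h1' a1 a2
  rw [dotProduct_comm] at a1 a2
  obtain ⟨c, h3, h4⟩ := hs u φ w ψ h1 h1' a2 a1
  have hc0 : c ≠ 0 := by rintro rfl; exact a1 (by simpa using h3.symm)
  rw [dotProduct_comm u, dotProduct_comm w]
  refine ⟨c⁻¹, by rw [← h3]; field_simp, ?_⟩
  convert h.rescale h4 (inv_ne_zero (mul_ne_zero hc0 a2)) using 1 <;> rw [← h3] <;>
    match_scalars <;> field_simp

/-! ### the job -/

/-- The root groups of `x` and `y` are conjugate. -/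
def Rel (P : Subgroup (GL (Fin n) F)) (k : Subfield F) (x y : R n F) : Prop :=
  ∃ g ∈ P, ∃ a ∈ k, a ≠ 0 ∧ g.val * N x * (g⁻¹).val = a • N y

theorem Rel.cg {k : Subfield F} {x y : R n F} {g : GL (Fin n) F} (hg : g ∈ G)
    (h : Rel G k x (cg g y)) : Rel G k x y := by
  obtain ⟨b, hb, a, ha, a0, e⟩ := h
  refine ⟨g⁻¹ * b, G.mul_mem (G.inv_mem hg) hb, a, ha, a0, ?_⟩
  rw [← N_cg, cg_mul, N_cg, N_cg, e, mul_smul_comm, smul_mul_assoc, ← N_cg, cg_inv_cg]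

theorem rel_of_opp [Finite F] (hn : 3 ≤ n) {k : Subfield F} (hk : TS G k)
    (hL : Lam G k ∨ (2 : F) = 0) (h1 : TV G u φ) (h2 : TV G w ψ) (a1 : φ ⬝ᵥ w ≠ 0)
    (a2 : ψ ⬝ᵥ u ≠ 0) : Rel G k (u, φ) (w, ψ) := by
  rcases hL with hL | h
  · have hc : φ ⬝ᵥ w * ψ ⬝ᵥ u ∈ k := hL _ _ h1 h2
    have h3 : TV G ((φ ⬝ᵥ w * ψ ⬝ᵥ u)⁻¹ • u) φ :=
      (hk _ h1 (right_ne a2) (left_ne a1) _).2 (inv_mem hc)
    refine Rel.cg h3.mem ⟨_, h2.mem, -(φ ⬝ᵥ w * ψ ⬝ᵥ u), neg_mem hc, by simp [a1, a2], ?_⟩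
    rw [← N_cg, cg_tv, cg_tv]
    simp only [N_add_left, N_sub_right, N_smul_left, N_smul_right, dotProduct_smul, smul_eq_mul]
    match_scalars <;> field_simp
  · obtain ⟨c, c1, c2⟩ := sw_tv hn h G u φ w ψ h1 h2 a1 a2
    have hc0 : c ≠ 0 := by rintro rfl; exact a2 (by simpa using c1.symm)
    have e1 : φ ⬝ᵥ u = 0 := h1.1
    refine ⟨_, c2.mem, 1, one_mem k, one_ne_zero, ?_⟩
    rw [← N_cg, cg_tv]
    simp only [N_add_left, N_sub_right, N_add_right, N_smul_left, N_smul_right, dotProduct_smul,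
      smul_eq_mul, add_dotProduct, dotProduct_add, smul_dotProduct, e1, smul_add]
    rw [← c1]
    match_scalars <;> field_simp
    all_goals first | ring1 | linear_combination (-(c * φ ⬝ᵥ w) ^ 2) * h

theorem jobTP : JobTP.{u} := by
  intro F _ _ P hP hT
  obtain ⟨⟨u, φ⟩, h0, hu, hφ⟩ : ∃ x, Tv P x ∧ x.1 ≠ 0 ∧ x.2 ≠ 0 := by
    by_contra! hc
    exact hT fun x hx => or_iff_not_imp_left.2 (hc x hx)
  have key : ∀ w ψ, TV P w ψ → w ≠ 0 → ψ ≠ 0 → ∃ K : Subfield F, (∀ a, a ∈ K ↔ TV P (a • u) φ) ∧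
      ∀ a, a ∈ K ↔ TV P (a • w) ψ := fun w ψ h hw hψ => by
    obtain ⟨g, hg, b1, b2⟩ := opp_conj hP h0 hu hφ hw hψ
    obtain ⟨K, k1, k2, -⟩ := pair (by norm_num) (TV.conj hg h0) h b2 b1
    refine ⟨K, fun a => (k1 a).trans ⟨fun s => ?_, fun s => ?_⟩, k2⟩
    · simpa [mulVec_smul] using s.conj (P.inv_mem hg)
    · simpa [mulVec_smul] using s.conj hg
  obtain ⟨k, hk, -⟩ := key u φ h0 hu hφ
  have hS : TS P k := fun x hx x1 x2 a => by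
    obtain ⟨K, k1, k2⟩ := key x.1 x.2 hx x1 x2
    exact (k2 a).symm.trans ((k1 a).trans (hk a).symm)
  refine ⟨k, hS, fun hL x y hx x1 x2 hy y1 y2 => ?_, fun x y hx hy => ?_⟩
  · obtain ⟨g, hg, b1, b2⟩ := opp_conj hP hy y1 y2 x1 x2
    exact Rel.cg hg (rel_of_opp (by norm_num) hS hL hx (TV.conj hg hy) b1 b2)
  · by_cases a1 : x.2 ⬝ᵥ y.1 = 0
    · simp [cc, a1]
    by_cases a2 : y.2 ⬝ᵥ x.1 = 0
    · simp [cc, a2]
    obtain ⟨K, k1, -, k3⟩ := pair (by norm_num) hx hy a1 a2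
    obtain rfl : K = k := Subfield.ext fun a =>
      (k1 a).trans (hS x hx (right_ne a2) (left_ne a1) a)
    rcases k3 with h | ⟨h3, h4, h5⟩ | h
    · exact .inl h
    · refine .inr (.inr ⟨h3, h5, fun a ha => ?_⟩)
      rcases h4 a ha with rfl | rfl | rfl <;> norm_num
    · exact .inr (.inl h)

end H54.T5
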